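import Cfsg.Agent.FSim.Crit
import Cfsg.Agent.Classical.AutO

/-!
# FSim/Form: symplectic and unitary groups in the defining characteristic
-/

set_option autoImplicit false

namespace Cfsg.Agent.FSim

open Subgroup Cfsg.Agent.Core Cfsg.Agent.Classical

variable {G F V : Type*} [Group G] [Field F] [AddCommGroup V] [Module F V] {σ : F →+* F} {ε : F}
  {B : V →ₛₗ[σ] V →ₗ[F] F} {ρ : Representation F G V} {p : ℕ}

/-- the pointwise stabiliser -/
def Fix (ρ : Representation F G V) (K : Submodule F V) : Subgroup G where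
  carrier := {g | ∀ x ∈ K, ρ g x = x}
  mul_mem' ha hb x hx := by rw [map_mul, Module.End.mul_apply, hb x hx, ha x hx]
  one_mem' x _ := by simp
  inv_mem' {g} ha x hx := by
    conv_lhs => rw [← ha x hx]
    simp

theorem mem_Fix_span {s : Set V} {g : G} : g ∈ Fix ρ (Submodule.span F s) ↔ ∀ x ∈ s, ρ g x = x :=
  ⟨fun h x hx => h x (Submodule.subset_span hx), fun h _ hx => LinearMap.eqOn_span (g := LinearMap.id) h hx⟩

theorem rho_mul (g k : G) (x : V) : ρ (g * k) x = ρ g (ρ k x) := by rw [map_mul, Module.End.mul_apply]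

theorem eq_one_of_smul [Fact p.Prime] [CharP F p] {g : G} (hg : ∃ k, g ^ p ^ k = 1) {u : V} (hu : u ≠ 0) {a : F}
    (h : ρ g u = a • u) : a = 1 := by
  obtain ⟨k, hk⟩ := hg
  have h1 : ∀ n : ℕ, ρ (g ^ n) u = a ^ n • u := fun n => by
    induction n with
    | zero => simp
    | succ n ih => rw [pow_succ, rho_mul, h, map_smul, ih, smul_smul, pow_succ']
  have h2 := h1 (p ^ k)
  rw [hk, map_one, Module.End.one_apply, eq_comm, ← sub_eq_zero] at h2
  nth_rw 2 [← one_smul F u] at h2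
  rw [← sub_smul, smul_eq_zero_iff_left hu, ← one_pow (p ^ k), ← sub_pow_char_pow] at h2
  exact sub_eq_zero.mp (pow_eq_zero_iff (pow_ne_zero _ (Fact.out : p.Prime).ne_zero) |>.mp h2)

theorem pow_of_cube [hp : Fact p.Prime] [CharP F p] (hi : Function.Injective ρ) {g : G}
    (h : ∀ x, (ρ g - 1) ((ρ g - 1) ((ρ g - 1) x)) = 0) : g ^ p ^ 2 = 1 := by
  rcases subsingleton_or_nontrivial V with hV | hV
  · exact hi (Subsingleton.elim _ _)
  haveI : CharP (Module.End F V) p := charP_of_injective_algebraMap (algebraMap F _).injective p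
  have h4 : (ρ g - 1) ^ p ^ 2 = 0 := pow_eq_zero_of_le (m := 3) (by nlinarith [hp.out.two_le])
    (LinearMap.ext fun x => by simpa only [pow_succ, pow_zero, one_mul, Module.End.mul_apply, LinearMap.zero_apply] using h x)
  rw [sub_pow_char_pow_of_commute _ _ (Commute.one_right _), one_pow, sub_eq_zero, ← map_pow, ← map_one ρ] at h4
  exact hi h4

theorem inv_stab [Finite G] {g : G} {K : Submodule F V} (h : ∀ x ∈ K, ρ g x ∈ K) : ∀ x ∈ K, ρ g⁻¹ x ∈ K := by
  obtain ⟨n, hn⟩ := (mem_powers_iff_mem_zpowers.mpr (inv_mem (mem_zpowers g)) : g⁻¹ ∈ Submonoid.powers g)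
  rw [← hn]
  clear hn
  induction n with
  | zero => simp
  | succ n ih => exact fun x hx => by simpa only [pow_succ, rho_mul] using ih _ (h x hx)

theorem norm_Fix [Finite G] {g : G} {K : Submodule F V} (h : ∀ x ∈ K, ρ g x ∈ K) :
    g ∈ normalizer (Fix ρ K : Set G) := mem_normalizer_fintype fun k hk x hx => by
  rw [rho_mul, rho_mul, hk _ (inv_stab h x hx)]; simp

theorem span_stab {g : G} {s : Set V} (h : ∀ x ∈ s, ρ g x ∈ Submodule.span F s) :
    ∀ x ∈ Submodule.span F s, ρ g x ∈ Submodule.span F s := fun _ hx =>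
  (Submodule.span_le (p := (Submodule.span F s).comap (ρ g))).mpr h hx

theorem line_stab {g : G} {u : V} {a : F} (e : ρ g u = a • u) :
    ∀ x ∈ Submodule.span F {u}, ρ g x ∈ Submodule.span F {u} := span_stab (by
  rintro _ rfl; exact e ▸ Submodule.smul_mem _ _ (Submodule.mem_span_singleton_self _))

/-- `g` is the Eichler transformation given by `d, e, l` -/
def IsE (ε : F) (B : V →ₛₗ[σ] V →ₗ[F] F) (ρ : Representation F G V) (d e : V) (l : F) (g : G) : Prop :=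
  ∀ x, ρ g x = x + (ε * B e x - l * B d x) • d - B d x • e

/-- a group of isometries containing all Eichler transformations -/
structure Frm (p : ℕ) (ε : F) (B : V →ₛₗ[σ] V →ₗ[F] F) (ρ : Representation F G V) : Prop where
  invol : ∀ a, σ (σ a) = a
  ee : ε * ε = 1
  σe : σ ε = ε
  sym : ∀ x y, B y x = ε * σ (B x y)
  esym : ∀ x y, ε * (B x y + B y x) = B x y + B y x
  orth : ∀ (H : Submodule F V) (u : V), u ∉ H → ∃ y, (∀ h ∈ H, B y h = 0) ∧ B y u = 1
  inj : Function.Injective ρ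
  inv : ∀ g x y, B (ρ g x) (ρ g y) = B x y
  E : ∀ d e l, B d d = 0 → B d e = 0 → l + ε * σ l = B e e → ∃ g, IsE ε B ρ d e l g
  tr : ∀ e, ∃ l, l + ε * σ l = B e e
  skew : ∃ l, l ≠ 0 ∧ l + ε * σ l = 0
  iso0 : ∃ u, u ≠ 0 ∧ B u u = 0
  iso : ∀ u f, B u u = 0 → B f f = 0 → B u f = 1 → ∃ v, v ≠ 0 ∧ B v v = 0 ∧ B u v = 0 ∧ B f v = 0
  gen : ∀ u f, B u u = 0 → B f f = 0 → B u f = 1 →
    Fix ρ (Submodule.span F {u, f}) ≤ PE p (Fix ρ (Submodule.span F {u}))
  exc : (∀ a, a = ε * σ a) → (∀ x, B x x = 0) ∧ (2 : F) = 0 ∧ ((∃ c : F, c ≠ 0 ∧ c ≠ 1) ∨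
    ∀ u e e', ∃ w, w ∉ Submodule.span F {u} ∧ B u w = 0 ∧ B e w = 0 ∧ B e' w = 0)

namespace Frm

variable (h : Frm p ε B ρ)
include h

theorem zero {x y : V} (e : B x y = 0) : B y x = 0 := by rw [h.sym, e, map_zero, mul_zero]

theorem inv' (g : G) (x y : V) : B x (ρ g⁻¹ y) = B (ρ g x) y := by rw [← h.inv g]; simp

/-- the unipotent radical of the stabiliser of `W` -/
def Q (W : Submodule F V) : Subgroup G where
  carrier := {g | g ∈ Fix ρ W ∧ ∀ x, (∀ w ∈ W, B w x = 0) → ρ g x - x ∈ W}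
  mul_mem' {a b} ha hb := ⟨mul_mem ha.1 hb.1, fun x hx => by
    have := add_mem (hb.2 x hx) (ha.2 x hx)
    rwa [← ha.1 _ (hb.2 x hx), map_sub, ← rho_mul, sub_add_sub_cancel] at this⟩
  one_mem' := ⟨one_mem _, fun x _ => by simp⟩
  inv_mem' {a} ha := ⟨inv_mem ha.1, fun x hx => by
    have := neg_mem (ha.2 (ρ a⁻¹ x) fun w hw => by rw [h.inv', ha.1 w hw, hx w hw])
    simpa using this⟩

theorem Q_p [Fact p.Prime] [CharP F p] (W : Submodule F V) : IsPGroup p (h.Q W) := fun ⟨g, hg⟩ =>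
  ⟨2, Subtype.ext (pow_of_cube h.inj fun x => sub_eq_zero.mpr (hg.1 _ (hg.2 _ fun w hw => by
    change B w (ρ g x - x) = 0
    rw [map_sub, ← h.inv g w x, hg.1 w hw, sub_self])))⟩

theorem norm_Q [Finite G] {g : G} {W : Submodule F V} (h1 : ∀ x ∈ W, ρ g x ∈ W) :
    g ∈ normalizer (h.Q W : Set G) := mem_normalizer_fintype fun k hk => ⟨conj_mem (norm_Fix h1) hk.1, fun x hx => by
  have := h1 _ (hk.2 (ρ g⁻¹ x) fun w hw => by rw [h.inv', hx _ (h1 w hw)])
  simpa [rho_mul] using this⟩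

theorem Fix_le [Finite G] (W : Submodule F V) : Fix ρ W ≤ normalizer (h.Q W : Set G) := fun _ hg =>
  h.norm_Q fun x hx => (hg x hx).symm ▸ hx

theorem E_eq {d e : V} {l : F} {g k : G} (h1 : IsE ε B ρ d e l g) (h2 : IsE ε B ρ d e l k) : g = k :=
  h.inj (LinearMap.ext fun x => (h1 x).trans (h2 x).symm)

theorem E_conj {d e : V} {l : F} {g : G} (h1 : IsE ε B ρ d e l g) (k : G) :
    IsE ε B ρ (ρ k d) (ρ k e) l (k * g * k⁻¹) := fun x => by
  simp [rho_mul, h1 _, h.inv']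

theorem E_mul {d e e' : V} {l l' : F} {g k : G} (h1 : IsE ε B ρ d e l g) (h2 : IsE ε B ρ d e' l' k) (hd : B d d = 0)
    (he : B d e = 0) (he' : B d e' = 0) : IsE ε B ρ d (e + e') (l + l' + ε * B e e') (g * k) := fun x => by
  rw [rho_mul, h1, h2]
  simp only [map_add, map_sub, map_smul, LinearMap.add_apply, smul_eq_mul, hd, he', h.zero he]
  module

theorem E_mem {d e : V} {l : F} {g : G} (h1 : IsE ε B ρ d e l g) {W : Submodule F V} (hd : d ∈ W)
    (hW : ∀ w ∈ W, B d w = 0) (he : ∀ w ∈ W, B e w = 0) : g ∈ h.Q W :=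
  ⟨fun w hw => by simp [h1 w, hW w hw, he w hw], fun x hx => by
    rw [h1, hx d hd, zero_smul, sub_zero, add_sub_cancel_left]; exact W.smul_mem _ hd⟩

omit h in
theorem span_zero {d u : V} (e : B d u = 0) : ∀ w ∈ Submodule.span F {u}, B d w = 0 := fun w hw => by
  obtain ⟨c, rfl⟩ := Submodule.mem_span_singleton.mp hw
  rw [map_smul, e, smul_zero]

theorem E_mem1 {d e : V} {l : F} {g : G} (h1 : IsE ε B ρ d e l g) (hd : B d d = 0) (he : B d e = 0) :
    g ∈ h.Q (Submodule.span F {d}) :=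
  h.E_mem h1 (Submodule.mem_span_singleton_self _) (span_zero hd) (span_zero (h.zero he))

theorem iso_sub {d x : V} (hd : B d d = 0) (hx : B d x ≠ 0) : ∃ a : F, B (x - a • d) (x - a • d) = 0 := by
  obtain ⟨l, hl⟩ := h.tr x
  refine ⟨l * ε / σ (B d x), ?_⟩
  have h1 : σ (B d x) ≠ 0 := (map_ne_zero σ).mpr hx
  simp only [map_sub, map_smul, map_smulₛₗ, LinearMap.sub_apply, LinearMap.smul_apply, smul_eq_mul, hd, ← hl,
    h.sym d x, map_div₀, map_mul, h.invol, h.σe]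
  field_simp
  linear_combination (-(B d x * l * σ (B d x))) * h.ee

theorem dual {K : Submodule F V} {d : V} (hK : d ∉ K) : ∃ y, B d y = 1 ∧ ∀ k ∈ K, B k y = 0 := by
  obtain ⟨y, h1, h2⟩ := h.orth K d hK
  exact ⟨ε • y, by rw [map_smul, h.sym, h2, map_one, mul_one, smul_eq_mul, h.ee],
    fun k hk => by rw [map_smul, h.zero (h1 k hk), smul_zero]⟩

theorem hyp {K : Submodule F V} {d : V} (hK : d ∉ K) (hd : B d d = 0) (hd' : ∀ k ∈ K, B k d = 0) :
    ∃ f, B f f = 0 ∧ B d f = 1 ∧ ∀ k ∈ K, B k f = 0 := by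
  obtain ⟨y, h1, h2⟩ := h.dual hK
  obtain ⟨a, ha⟩ := h.iso_sub hd (h1.trans_ne one_ne_zero)
  exact ⟨_, ha, by simp [h1, hd], fun k hk => by simp [h2 k hk, hd' k hk]⟩

theorem hyp1 {d : V} (h0 : d ≠ 0) (hd : B d d = 0) : ∃ f, B f f = 0 ∧ B d f = 1 :=
  (h.hyp (K := ⊥) (by simpa) hd (by simp)).imp fun _ e => ⟨e.1, e.2.1⟩

theorem move {d f f' : V} (hd : B d d = 0) (h1 : B d f = 1) (h2 : B d f' = 1) (h3 : B f f = 0) (h4 : B f' f' = 0) :
    ∃ l g, l + ε * σ l = B (f - f') (f - f') ∧ IsE ε B ρ d (f - f') l g ∧ ρ g f = f' := by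
  have hl : ε * B (f - f') f + ε * σ (ε * B (f - f') f) = B (f - f') (f - f') := by
    have := h.esym f f'
    have h5 := h.sym f' f
    simp only [map_sub, LinearMap.sub_apply, h3, h4, map_mul, h.σe, map_zero]
    linear_combination -this + ε * h5
  obtain ⟨g, hg⟩ := h.E d _ _ hd (by simp [h1, h2]) hl
  exact ⟨_, g, hl, hg, by simp [hg f, h1]⟩

theorem mem_Q1 {u f : V} (hu : B u u = 0) (hf : B f f = 0) (huf : B u f = 1) {g : G} (hg : ρ g u = u) :
    ∃ e l q, B u e = 0 ∧ l + ε * σ l = B e e ∧ IsE ε B ρ u e l q ∧ e = f - ρ g f ∧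
      q⁻¹ * g ∈ Fix ρ (Submodule.span F {u, f}) := by
  have h1 : B u (ρ g f) = 1 := by rw [← hg, h.inv, huf]
  obtain ⟨l, q, h2, h3, h4⟩ := h.move hu huf h1 hf (by rw [h.inv, hf])
  have h5 : B u (f - ρ g f) = 0 := by simp [h1, huf]
  refine ⟨_, l, q, h5, h2, h3, rfl, mem_Fix_span.mpr ?_⟩
  rintro _ (rfl | rfl)
  · rw [rho_mul, hg]; exact inv_mem (h.E_mem1 h3 hu h5).1 _ (Submodule.mem_span_singleton_self _)
  · rw [rho_mul, ← h4]; simp

theorem eq_E {u : V} (h0 : u ≠ 0) (hu : B u u = 0) {g : G} (hg : g ∈ h.Q (Submodule.span F {u})) :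
    ∃ e l, B u e = 0 ∧ l + ε * σ l = B e e ∧ IsE ε B ρ u e l g := by
  obtain ⟨f, hf, huf⟩ := h.hyp1 h0 hu
  obtain ⟨e, l, q, h1, h2, h3, -, h4⟩ := h.mem_Q1 hu hf huf (hg.1 _ (Submodule.mem_span_singleton_self _))
  have h5 := mul_mem (inv_mem (h.E_mem1 h3 hu h1)) hg
  refine ⟨e, l, h1, h2, (inv_mul_eq_one.mp (h.inj (LinearMap.ext fun x => ?_)) : q = g) ▸ h3⟩
  generalize q⁻¹ * g = k at h4 h5
  have h6 := mem_Fix_span.mp h4 f (by simp)
  obtain ⟨a, ha⟩ := Submodule.mem_span_singleton.mp (h5.2 (x - B u x • f) fun w hw =>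
    h.zero (span_zero (h.zero (by simp [huf])) w hw))
  have h7 := congrArg (B f) ha
  rw [map_sub (B f), ← h6, h.inv, h6, sub_self, map_smul, h.sym, huf, map_one, mul_one, smul_eq_mul,
    mul_eq_zero, or_iff_left (left_ne_zero_of_mul_eq_one h.ee)] at h7
  rw [h7, zero_smul, eq_comm, sub_eq_zero, map_sub, map_smul, h6, sub_left_inj] at ha
  simpa using ha

theorem cen [Fact p.Prime] [CharP F p] {W : Submodule F V} (hW : ∀ w ∈ W, ∀ w' ∈ W, B w w' = 0) {u : V} (hu : u ∈ W)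
    (h0 : u ≠ 0) : Cen p (h.Q W) := fun g hg hp => by
  have h1 : ∀ {d e l}, d ∈ W → (∀ w ∈ W, B w e = 0) → l + ε * σ l = B e e → ∀ x, (ε * B e x - l * B d x) • d - B d x • e =
      (ε * B (ρ g e) x - l * B (ρ g d) x) • ρ g d - B (ρ g d) x • ρ g e := fun {d e l} hd he hl x => by
    obtain ⟨k, hk⟩ := h.E d e l (hW d hd d hd) (he d hd) hl
    have := h.E_conj hk g x
    rw [← hg k (h.E_mem hk hd (hW d hd) fun w hw => h.zero (he w hw)), mul_inv_cancel_right, hk] at this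
    linear_combination (norm := module) this
  have h2 : g ∈ Fix ρ W := fun d hd => by
    by_cases hd0 : d = 0
    · simp [hd0]
    obtain ⟨l, hl, hl'⟩ := h.skew
    obtain ⟨y, hy, -⟩ := h.dual (K := ⊥) (by simpa : d ∉ ⊥)
    have h3 := h1 (e := 0) hd (by simp) (by simpa using hl') y
    simp only [map_zero, LinearMap.zero_apply, mul_zero, smul_zero, sub_zero, zero_sub, hy, mul_one, neg_smul, neg_inj,
      mul_smul, (smul_right_injective V hl).eq_iff] at h3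
    have h4 : B (ρ g d) y ≠ 0 := fun e => hd0 (by rw [h3, e, zero_smul])
    have h5 := (inv_smul_eq_iff₀ h4).mpr h3
    rw [← h5, eq_one_of_smul hp hd0 h5.symm, one_smul]
  refine ⟨h2, fun x hx => ?_⟩
  obtain ⟨l, hl⟩ := h.tr x
  obtain ⟨y, hy, -⟩ := h.dual (K := ⊥) (by simpa : u ∉ ⊥)
  have h3 := h1 hu hx hl y
  rw [h2 u hu, hy] at h3
  rw [show ρ g x - x = (ε * B (ρ g x) y - ε * B x y) • u by linear_combination (norm := module) h3]
  exact W.smul_mem _ hu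

theorem tr_add {e e' : V} {l l' : F} (h1 : l + ε * σ l = B e e) (h2 : l' + ε * σ l' = B e' e') :
    l + l' + ε * B e e' + ε * σ (l + l' + ε * B e e') = B (e + e') (e + e') := by
  have := h.esym e e'
  have h5 := h.sym e e'
  simp only [map_add, LinearMap.add_apply, map_mul, h.σe]
  linear_combination h1 + h2 + this - ε * h5

theorem exists_tv [Finite G] [Fact p.Prime] [CharP F p] {W : Submodule F V} (hW : ∀ w ∈ W, ∀ w' ∈ W, B w w' = 0)
    {d x : V} (hd : d ∈ W) (hx : x ∈ W) (h0 : x ∉ Submodule.span F {d}) :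
    ∃ k ∈ PE p (normalizer (h.Q W : Set G)), ρ k x = x + d := by
  obtain ⟨y, h1, h2⟩ := h.orth _ _ h0
  have h3 : B d (ε • y) = 0 := by rw [map_smul, h.zero (h1 d (Submodule.mem_span_singleton_self _)), smul_zero]
  obtain ⟨l, hl⟩ := h.tr (ε • y)
  obtain ⟨k, hk⟩ := h.E d _ l (hW d hd d hd) h3 hl
  refine ⟨k, mem_PE (h.norm_Q fun w hw => ?_) (pow_of_mem (h.Q_p _) (h.E_mem1 hk (hW d hd d hd) h3)), ?_⟩
  · rw [hk, hW d hd w hw, zero_smul, sub_zero]; exact add_mem hw (W.smul_mem _ hd)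
  · simp [hk x, hW d hd x hx, h2, h.σe, h.ee]

theorem plane {u v : V} (hu : B u u = 0) (hv : B v v = 0) (huv : B u v = 0) :
    ∀ w ∈ Submodule.span F {u, v}, ∀ w' ∈ Submodule.span F {u, v}, B w w' = 0 := fun w hw w' hw' => by
  obtain ⟨a, b, rfl⟩ := Submodule.mem_span_pair.mp hw
  obtain ⟨c, d, rfl⟩ := Submodule.mem_span_pair.mp hw'
  simp [hu, hv, huv, h.zero huv]

theorem scale [Finite G] [Fact p.Prime] [CharP F p] {u v f : V} (hu : B u u = 0) (hv : B v v = 0) (huv : B u v = 0)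
    (hf : B u f = 1) (hfv : B f v = 0) (h0 : v ≠ 0) {a : F} (ha : a ≠ 0) :
    ∃ k ∈ PE p (normalizer (h.Q (Submodule.span F {u, v}) : Set G)), ρ k u = a • u := by
  have h1 : u ∈ Submodule.span F {u, v} := Submodule.subset_span (by simp)
  have h2 : v ∈ Submodule.span F {u, v} := Submodule.subset_span (by simp)
  have h3 := h.zero hfv
  obtain ⟨k, hk, e⟩ := h.exists_tv (h.plane hu hv huv) h2 h1 fun e => by
    obtain ⟨c, rfl⟩ := Submodule.mem_span_singleton.mp e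
    simp [h3] at hf
  obtain ⟨k', hk', e'⟩ := h.exists_tv (h.plane hu hv huv) (sub_mem (Submodule.smul_mem _ (a - 1) h1) h2)
    (add_mem h1 h2) fun e => by
      obtain ⟨c, hc⟩ := Submodule.mem_span_singleton.mp e
      have h4 := congrArg (B f) hc
      simp only [map_smul, map_sub, map_add, hfv, h.sym u f, hf, map_one, smul_eq_mul] at h4
      have h5 : c * (a - 1) = 1 := by linear_combination ε * h4 + (1 - c * (a - 1)) * h.ee
      have h6 : (c + 1) • v = 0 := by linear_combination (norm := module) -hc + h5 • u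
      rw [smul_eq_zero_iff_left h0] at h6
      exact ha (by linear_combination -h5 + (a - 1) * h6)
  exact ⟨k' * k, mul_mem hk' hk, by rw [rho_mul, e, e']; module⟩

theorem trans_perp {d u : V} (h0 : d ≠ 0) (hd : B d d = 0) (h1 : u ≠ 0) (hu : B u u = 0) (e : B u d = 0) :
    ∃ g, ∃ a : F, a ≠ 0 ∧ ρ g d = a • u := by
  obtain ⟨y, h2, h3⟩ : ∃ y, B d y ≠ 0 ∧ B u y ≠ 0 := by
    obtain ⟨y, hy, -⟩ := h.dual (K := ⊥) (by simpa : d ∉ ⊥)
    obtain ⟨y', hy', -⟩ := h.dual (K := ⊥) (by simpa : u ∉ ⊥)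
    by_cases h2 : B u y = 0
    · by_cases h3 : B d y' = 0
      · exact ⟨y + y', by simp [hy, h3], by simp [hy', h2]⟩
      · exact ⟨y', h3, by simp [hy']⟩
    · exact ⟨y, by simp [hy], h2⟩
  obtain ⟨a, ha⟩ := h.iso_sub hd h2
  have h4 : B (y - a • d) d ≠ 0 := fun e => h2 (by simpa [hd] using h.zero e)
  have h5 : B (y - a • d) u ≠ 0 := fun e' => h3 (by simpa [e] using h.zero e')
  generalize y - a • d = w at ha h4 h5
  obtain ⟨-, g, -, -, hg⟩ := h.move (f := (B w d)⁻¹ • d) (f' := (B w u)⁻¹ • u) ha (by simp [h4]) (by simp [h5])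
    (by simp [hd]) (by simp [hu])
  exact ⟨g, B w d * (B w u)⁻¹, by simp [h4, h5], by rw [mul_smul, ← hg, map_smul, smul_inv_smul₀ h4]⟩

theorem trans [Finite G] [Fact p.Prime] [CharP F p] {d u : V} (h0 : d ≠ 0) (hd : B d d = 0) (h1 : u ≠ 0)
    (hu : B u u = 0) : ∃ g, ρ g d = u := by
  obtain ⟨g, a, ha, e⟩ : ∃ g, ∃ a : F, a ≠ 0 ∧ ρ g d = a • u := by
    by_cases e : B u d = 0
    · exact h.trans_perp h0 hd h1 hu e
    obtain ⟨v, v0, v1, v2, v3⟩ := h.iso u ((B u d)⁻¹ • d) hu (by simp [hd]) (by simp [e])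
    obtain ⟨g, a, ha, e1⟩ := h.trans_perp h0 hd v0 v1 (h.zero (by simpa [e] using v3))
    obtain ⟨k, b, hb, e2⟩ := h.trans_perp v0 v1 h1 hu v2
    exact ⟨k * g, a * b, mul_ne_zero ha hb, by rw [rho_mul, e1, map_smul, e2, smul_smul]⟩
  obtain ⟨f, hf, huf⟩ := h.hyp1 h1 hu
  obtain ⟨v, v0, v1, v2, v3⟩ := h.iso u f hu hf huf
  obtain ⟨k, -, hk⟩ := h.scale hu v1 v2 huf v3 v0 (inv_ne_zero ha)
  exact ⟨k * g, by rw [rho_mul, e, map_smul, hk, smul_inv_smul₀ ha]⟩

theorem fix_iso [Finite F] [FiniteDimensional F V] [Fact p.Prime] [CharP F p] {R : Subgroup G} (hR : IsPGroup p R)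
    (h0 : R ≠ ⊥) : ∃ d, d ≠ 0 ∧ (∀ g ∈ R, ρ g d = d) ∧ ∀ c, (∀ g ∈ R, ρ g c = c) → B c d = 0 := by
  let X := Submodule.span F {y | ∃ g ∈ R, ∃ x, y = ρ g x - x}
  obtain ⟨d, h1, h2, h3⟩ := AutO.exists_fixed_quot hR (ρ.comp R.subtype) (A := ⊥) (B := X) (fun _ => bot_le)
    (fun g y hy => by
      simpa using add_mem hy (Submodule.subset_span ⟨g, g.2, y, rfl⟩ : ρ g y - y ∈ X)) fun e => h0 (eq_bot_iff.mpr
        fun g hg => h.inj (LinearMap.ext fun x => by
          simpa [sub_eq_zero] using e (Submodule.subset_span ⟨g, hg, x, rfl⟩)))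
  refine ⟨d, by simpa using h2, fun g hg => by simpa [sub_eq_zero] using h3 ⟨g, hg⟩, fun c hc =>
    (Submodule.span_le (p := LinearMap.ker (B c))).mpr ?_ h1⟩
  rintro _ ⟨g, hg, x, rfl⟩
  rw [SetLike.mem_coe, LinearMap.mem_ker, map_sub, ← h.inv g c x, hc g hg, sub_self]

theorem le_of_Q [Finite G] [Finite F] [FiniteDimensional F V] [Fact p.Prime] [CharP F p] (S : Sylow p G) {T : Subgroup G}
    (hT : ∀ x ∈ (S : Subgroup G), ∀ d, d ≠ 0 → B d d = 0 → x ∈ h.Q (Submodule.span F {d}) → x ∈ T) :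
    (S : Subgroup G) ≤ T := by
  refine le_of_steps (p := p) (ι := {K : Submodule F V // ∀ x ∈ K, (∀ k ∈ K, B k x = 0) → x = 0})
    (fun K => Module.finrank F V - Module.finrank F K.1) (fun K => Fix ρ K.1)
    (X := {x | ∃ d, d ≠ 0 ∧ B d d = 0 ∧ x ∈ h.Q (Submodule.span F {d})}) ?_ ⟨⊥, by simp⟩
    (isSylowOf_sylow_of_le S fun g _ x hx => by simp [(Submodule.mem_bot F).mp hx])
    fun x hx ⟨d, h1, h2, h3⟩ => hT x hx d h1 h2 h3
  rintro ⟨K, hK⟩ R h1 h2 h3
  obtain ⟨d, d0, d1, d2⟩ := h.fix_iso h2 h3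
  have d3 : ∀ k ∈ K, B k d = 0 := fun k hk => d2 k fun g hg => h1 hg k hk
  have d4 : d ∉ K := fun e => d0 (hK d e d3)
  obtain ⟨f, f1, f2, f3⟩ := h.hyp d4 (d2 d d1) d3
  have m1 : d ∈ Submodule.span F {d, f} := Submodule.subset_span (by simp)
  have hn : ∀ g ∈ Fix ρ K, ρ g d = d → g ∈ normalizer ((h.Q (Submodule.span F {d}) ⊓ Fix ρ K : Subgroup G) : Set G) :=
    fun g hg e => mem_normalizer_fintype fun x hx =>
      ⟨conj_mem (h.Fix_le _ (mem_Fix_span.mpr (by simpa))) hx.1, conj_mem (le_normalizer hg) hx.2⟩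
  refine ⟨⟨K ⊔ Submodule.span F {d, f}, fun x hx hx' => ?_⟩, _, inf_le_right, ?_, fun g hg x hx =>
    hg x (Submodule.mem_sup_left hx), (h.Q_p _).to_le inf_le_left, fun x hx => ⟨d, d0, d2 d d1, hx.1⟩,
    fun g hg => hn g (h1 hg) (d1 g hg), fun g hg => hn g (fun x hx => hg x (Submodule.mem_sup_left hx))
      (hg d (Submodule.mem_sup_right m1)), fun g hg => ?_⟩
  · obtain ⟨k, hk, y, hy, rfl⟩ := Submodule.mem_sup.mp hx
    obtain ⟨a, b, rfl⟩ := Submodule.mem_span_pair.mp hy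
    have h4 := hx' d (Submodule.mem_sup_right m1)
    have h5 := hx' f (Submodule.mem_sup_right (Submodule.subset_span (by simp)))
    simp only [map_add, map_smul, h.zero (d3 k hk), h.zero (f3 k hk), d2 d d1, f1, f2, h.sym d f, map_one, smul_eq_mul,
      mul_zero, mul_one, zero_add, add_zero, mul_eq_zero, left_ne_zero_of_mul_eq_one h.ee, or_false] at h4 h5
    simpa [h4, h5] using hK k hk fun j hj => by simpa [h4, h5] using hx' j (Submodule.mem_sup_left hj)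
  · have := Submodule.finrank_lt_finrank_of_lt (left_lt_sup.mpr fun e : Submodule.span F {d, f} ≤ K => d4 (e m1))
    have := (K ⊔ Submodule.span F {d, f}).finrank_le
    dsimp only
    omega
  obtain ⟨e, l, q, q1, -, q2, rfl, q3⟩ := h.mem_Q1 (d2 d d1) f1 f2 (d1 g hg)
  have q4 : q ∈ Fix ρ K := fun k hk => by
    have : B (ρ g f) k = 0 := by rw [← h.inv', inv_mem (h1 hg) k hk, h.zero (f3 k hk)]
    simp [q2 k, h.zero (d3 k hk), h.zero (f3 k hk), this]
  refine ⟨q, ⟨h.E_mem1 q2 (d2 d d1) q1, q4⟩, fun x hx => ?_⟩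
  obtain ⟨k, hk, y, hy, rfl⟩ := Submodule.mem_sup.mp hx
  rw [map_add, q3 y hy, mul_mem (inv_mem q4) (h1 hg) k hk]

omit h in
theorem E_line {u e : V} {l c : F} {g : G} (h1 : IsE ε B ρ u (e + c • u) l g) : IsE ε B ρ u e (l + c - ε * σ c) g :=
  fun x => by rw [h1]; simp only [map_add, map_smulₛₗ, LinearMap.add_apply, LinearMap.smul_apply, smul_eq_mul]; module

theorem tv_ne {u : V} {l : F} {g : G} (h0 : u ≠ 0) (hl : l ≠ 0) (hg : IsE ε B ρ u 0 l g) : g ≠ 1 := fun e => by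
  obtain ⟨y, hy, -⟩ := h.dual (K := ⊥) (by simpa : u ∉ ⊥)
  simpa [e, hy, hl, h0] using hg y

theorem perp {u e : V} (he : e ∉ Submodule.span F {u}) : ∃ y, B e y = 1 ∧ B u y = 0 :=
  (h.dual he).imp fun _ H => ⟨H.1, H.2 u (Submodule.mem_span_singleton_self _)⟩

theorem fix_line {u x : V} (h0 : u ≠ 0) (hu : B u u = 0) (hx : ∀ g ∈ h.Q (Submodule.span F {u}), ρ g x = x) :
    x ∈ Submodule.span F {u} := by_contra fun H => by
  obtain ⟨y, h1, h2⟩ := h.perp H
  obtain ⟨l, hl, hl'⟩ := h.skew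
  obtain ⟨g, hg⟩ := h.E u 0 l hu (by simp) (by simpa using hl')
  have h3 : B u x = 0 := by simpa [hx g (h.E_mem1 hg hu (by simp)), hl, h0] using hg x
  obtain ⟨l, hl⟩ := h.tr y
  obtain ⟨g, hg⟩ := h.E u y l hu h2 hl
  simpa [hx g (h.E_mem1 hg hu h2), h3, h0, h.sym x y, h1, left_ne_zero_of_mul_eq_one h.ee] using hg x

variable {T : Subgroup G} {u : V}

omit h in
/-- the subgroup contains the Eichler transformation -/
def Has (_ : Frm p ε B ρ) (T : Subgroup G) (u e : V) (l : F) : Prop :=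
  B u e = 0 ∧ l + ε * σ l = B e e ∧ ∃ g ∈ T, IsE ε B ρ u e l g

theorem Has.mul (hu : B u u = 0) {e e' : V} {l l' : F} (h1 : h.Has T u e l) (h2 : h.Has T u e' l') :
    h.Has T u (e + e') (l + l' + ε * B e e') := by
  obtain ⟨a1, a2, g, a3, a4⟩ := h1
  obtain ⟨b1, b2, k, b3, b4⟩ := h2
  exact ⟨by simp [a1, b1], h.tr_add a2 b2, _, mul_mem a3 b3, h.E_mul a4 b4 hu a1 b1⟩

theorem Has.div (hu : B u u = 0) {e e' : V} {l l' : F} (h1 : h.Has T u e l) (h2 : B u e' = 0)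
    (h3 : l' + ε * σ l' = B e' e') {k : G} (h4 : k ∈ T) (h5 : IsE ε B ρ u (e + e') (l + l' + ε * B e e') k) :
    h.Has T u e' l' := by
  obtain ⟨a1, -, g, a3, a4⟩ := h1
  obtain ⟨j, hj⟩ := h.E u e' l' hu h2 h3
  exact ⟨h2, h3, j, (mul_mem_cancel_left a3).mp (h.E_eq h5 (h.E_mul a4 hj hu a1 h2) ▸ h4), hj⟩

theorem has_tv (h0 : u ≠ 0) (hu : B u u = 0)
    (hT : ∀ x ∈ T, x ∈ h.Q (Submodule.span F {u}) → ∀ g, ρ g u = u → g * x * g⁻¹ ∈ T) {z : G} (hz : z ∈ T)
    (hz' : z ∈ h.Q (Submodule.span F {u})) (h1 : z ≠ 1) : ∃ l, l ≠ 0 ∧ h.Has T u 0 l := by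
  obtain ⟨e, l, e1, e2, e3⟩ := h.eq_E h0 hu hz'
  have sk : ∀ c, c - ε * σ c + ε * σ (c - ε * σ c) = B 0 0 := fun c => by
    simp only [map_sub, map_mul, h.σe, h.invol, map_zero]
    linear_combination (-c) * h.ee
  by_cases he : e ∈ Submodule.span F {u}
  · obtain ⟨c, rfl⟩ := Submodule.mem_span_singleton.mp he
    have := E_line (e := 0) ((zero_add (c • u)).symm ▸ e3)
    refine ⟨_, fun H => h1 (h.E_eq this fun x => by simp [H]), by simp, ?_, z, hz, this⟩
    rw [add_sub_assoc, map_add]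
    linear_combination e2 + sk c + (by simp [hu] : B (c • u) (c • u) = 0)
  obtain ⟨y, y1, y2⟩ := h.perp he
  by_cases ha : ∀ a, a = ε * σ a
  · obtain ⟨x1, x2, x3⟩ := h.exc ha
    obtain rfl : ε = 1 := by simpa using (ha 1).symm
    have x4 : ∀ a, σ a = a := fun a => by simpa using (ha a).symm
    have x5 : ∀ x y, B x y = B y x := fun x y => by rw [h.sym, x4, one_mul]
    have x6 : ∀ x : V, x + x = 0 := fun x => by rw [← two_smul F, x2, zero_smul]
    have R : ∀ {e l}, h.Has T u e l → ∀ e' c, B u e' = 0 → B e e' = 1 → h.Has T u (c • e') c := fun {e l} H e' c h2 h3 => by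
      have h4 : c + 1 * σ c = 0 := by rw [x4]; linear_combination c * x2
      obtain ⟨k, hk⟩ := h.E e' 0 c (x1 _) (by simp) (by simpa using h4)
      have h5 : ρ k u = u := by simp [hk u, h.zero h2]
      obtain ⟨a1, -, g, a3, a4⟩ := id H
      refine H.div h hu (by simp [h2]) (h4.trans (x1 _).symm) (hT g a3 (h.E_mem1 a4 hu a1) k h5) ?_
      convert h.E_conj a4 k using 1
      · exact h5.symm
      · rw [hk, x5 e', h3, map_zero, LinearMap.zero_apply]; linear_combination (norm := module) x6 (c • e')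
      · rw [map_smul, h3, smul_eq_mul]; linear_combination c * x2
    have h2 : h.Has T u e l := ⟨e1, e2, z, hz, e3⟩
    rcases x3 with ⟨c, c0, c1⟩ | x3
    · refine ⟨c + 1, fun H => c1 (by linear_combination H - x2), ?_⟩
      simpa [c0, x6, x1] using (R (R h2 y c y2 y1) (c⁻¹ • e) c (by simp [e1]) (by simp [x4, x5 y, y1, c0])).mul h hu
        (R (R h2 y 1 y2 y1) e 1 e1 (by simp [x5 y, y1]))
    · obtain ⟨w, w1, w2, w3, w4⟩ := x3 u e y
      obtain ⟨v, v1, v2⟩ := h.perp w1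
      have h3 : h.Has T u w 0 := by
        simpa [← add_assoc, x6, x1, w4, one_add_one_eq_two, x2] using
          (R h2 y 1 y2 y1).mul h hu (R h2 (y + w) 1 (by simp [y2, w2]) (by simp [y1, w3]))
      exact ⟨1, one_ne_zero, by simpa [x6, x1] using h3.mul h hu (R (R h3 v 1 v2 v1) w 1 w2 (by simp [x5 v, v1]))⟩
  obtain ⟨a, ha⟩ := not_forall.mp ha
  obtain ⟨m, hm⟩ := h.tr (a • y)
  obtain ⟨k, hk⟩ := h.E u (a • y) m hu (by simp [y2]) hm
  have h2 : ρ k u = u := (h.E_mem1 hk hu (by simp [y2])).1 _ (Submodule.mem_span_singleton_self _)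
  refine ⟨σ a - ε * σ (σ a), fun H => ha ?_, Has.div h hu ⟨e1, e2, z, hz, e3⟩ (by simp) (sk _) (hT z hz hz' k h2) ?_⟩
  · rw [h.invol] at H; linear_combination -ε * H - a * h.ee
  have := h.E_conj e3 k
  rw [h2, hk, e1, show ε * B (a • y) e = σ a by simp [h.sym e y, y1, h.ee, mul_left_comm ε]] at this
  simpa [← add_sub_assoc] using E_line (by simpa using this)

theorem Q_le [Finite G] [Fact p.Prime] [CharP F p] (S : Sylow p G) (h0 : u ≠ 0) (hu : B u u = 0)
    (hS : ∀ g ∈ (S : Subgroup G), ρ g u = u)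
    (hT : ∀ x ∈ T, ∀ g : G, g * x * g⁻¹ ∈ (S : Subgroup G) → g * x * g⁻¹ ∈ T) {l : F} (hl : l ≠ 0) (h1 : h.Has T u 0 l)
    (hQ : h.Q (Submodule.span F {u}) ≤ S) : h.Q (Submodule.span F {u}) ≤ T := by
  obtain ⟨-, l1, z, hz, l2⟩ := h1
  have h2 : ∀ w k, B w w = 0 → IsE ε B ρ w 0 l k → ∀ g, g * k * g⁻¹ ∈ (S : Subgroup G) → g * k * g⁻¹ ∈ T :=
    fun w k hw hk g hg => by
      by_cases e : w = 0
      · rw [h.E_eq hk (k := 1) fun x => by simp [e], mul_one, mul_inv_cancel]; exact one_mem _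
      obtain ⟨j, rfl⟩ := h.trans h0 hu e hw
      obtain rfl := h.E_eq (by simpa using h.E_conj l2 j) hk
      simpa [mul_assoc] using hT z hz (g * j) (by simpa [mul_assoc] using hg)
  have h3 : ∀ e, B e e = 0 → B u e = 0 → h.Has T u e 0 := fun e he hue => by
    obtain ⟨e, rfl⟩ : ∃ e', l • e' = e := ⟨l⁻¹ • e, smul_inv_smul₀ hl e⟩
    have e1 : B e e = 0 := by simpa [hl] using he
    have e2 : B u e = 0 := by simpa [hl] using hue
    have hW := h.plane hu e1 e2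
    have m1 : u ∈ Submodule.span F {u, e} := Submodule.subset_span (by simp)
    have m2 : e ∈ Submodule.span F {u, e} := Submodule.subset_span (by simp)
    obtain ⟨k, k1, k2⟩ := exists_conj_mem (isSylowOf_sylow_of_le S (K := Fix ρ (Submodule.span F {u}))
      fun g hg => mem_Fix_span.mpr (by simpa using hS g hg)) (h.Q_p (Submodule.span F {u, e}))
      fun g hg => mem_Fix_span.mpr (by simpa using hg.1 u m1)
    have h4 : ∀ w ∈ Submodule.span F {u, e}, ∃ j, IsE ε B ρ w 0 l j ∧ k * j * k⁻¹ ∈ T := fun w hw =>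
      (h.E w 0 l (hW w hw w hw) (by simp) l1).imp fun j hj =>
        ⟨hj, h2 w j (hW w hw w hw) hj k (k2 j (h.E_mem hj hw (hW w hw) (by simp)))⟩
    obtain ⟨a, a1, a2⟩ := h4 u m1
    obtain ⟨b, b1, b2⟩ := h4 e m2
    obtain ⟨c, c1, c2⟩ := h4 _ (add_mem m1 m2)
    obtain ⟨g, hg⟩ := h.E u _ 0 hu hue (by simp [e1])
    have h5 : c = a * b * g := h.inj (LinearMap.ext fun x => by
      have : ε * σ l = -l := by simpa [← add_eq_zero_iff_eq_neg'] using l1
      simp only [rho_mul, c1 _, a1 _, b1 _, hg _, map_add, map_sub, map_smul, map_smulₛₗ, hu, e1, e2, h.zero e2, map_zero,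
        LinearMap.add_apply, LinearMap.smul_apply, LinearMap.zero_apply, smul_eq_mul, ← mul_assoc, this]
      module)
    have h6 : k * g * k⁻¹ ∈ T := by simpa [h5, mul_assoc] using mul_mem (inv_mem (mul_mem a2 b2)) c2
    refine ⟨hue, by simp [e1], g, ?_, hg⟩
    simpa [mul_assoc] using hT _ h6 k⁻¹ (by simpa [mul_assoc] using hQ (h.E_mem1 hg hu hue))
  obtain ⟨f, hf, huf⟩ := h.hyp1 h0 hu
  obtain ⟨v, v0, v1, v2, v3⟩ := h.iso u f hu hf huf
  obtain ⟨w, w1, w2, w3⟩ := h.hyp (K := Submodule.span F {u}) (d := v) (fun e => by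
    obtain ⟨c, rfl⟩ := Submodule.mem_span_singleton.mp e
    simp [h.sym u f, huf, left_ne_zero_of_mul_eq_one h.ee] at v3
    simp [v3] at v0) v1 fun k hk => h.zero (span_zero (h.zero v2) k hk)
  have w4 := w3 u (Submodule.mem_span_singleton_self _)
  have h4 : ∀ a, a + ε * σ a = 0 → h.Has T u 0 a := fun a ha => by
    have h5 : B (v + (ε * a) • w) (v + (ε * a) • w) = 0 := by
      simp only [map_add, map_smul, map_smulₛₗ, LinearMap.add_apply, LinearMap.smul_apply, v1, w1, w2, h.sym v w, map_one,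
        map_mul, h.σe, smul_eq_mul]
      linear_combination ε * ha
    have := ((h3 v v1 v2).mul h hu (h3 ((ε * a) • w) (by simp [w1]) (by simp [w4]))).mul h hu
      (h3 (-(v + (ε * a) • w)) (by simpa only [map_neg, LinearMap.neg_apply, neg_neg] using h5) (by simp [v2, w4]))
    rwa [add_neg_cancel, map_neg, h5, map_smul, w2, smul_eq_mul, mul_one, ← mul_assoc, h.ee, neg_zero, mul_zero, add_zero,
      add_zero, add_zero, zero_add, one_mul] at this
  intro g hg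
  obtain ⟨e, m, e1, e2, e3⟩ := h.eq_E h0 hu hg
  obtain ⟨a, ha⟩ := h.iso_sub (x := e + (1 - B v e) • w) v1 (by simp [w2])
  have h5 := ((h3 _ ha (by simp [e1, v2, w4])).mul h hu (h3 (a • v) (by simp [v1]) (by simp [v2]))).mul h hu
    (h3 (-((1 - B v e) • w)) (by simp [w1]) (by simp [w4]))
  rw [sub_add_cancel, add_neg_cancel_right] at h5
  obtain ⟨n, h5⟩ : ∃ n, h.Has T u e n := ⟨_, h5⟩
  obtain ⟨-, -, k, k1, k2⟩ := h5.mul h hu (h4 (m - n) (by rw [map_sub]; linear_combination e2 - h5.2.1))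
  exact h.E_eq (by simpa using k2) e3 ▸ k1

theorem crit [Finite G] [Finite F] [FiniteDimensional F V] [Fact p.Prime] [CharP F p] (S : Sylow p G) :
    Crit p (S : Subgroup G) := by
  have hS : (S : Subgroup G) ≠ ⊥ := fun e => by
    obtain ⟨u, h0, hu⟩ := h.iso0
    obtain ⟨l, hl, hl'⟩ := h.skew
    obtain ⟨g, hg⟩ := h.E u 0 l hu (by simp) (by simpa using hl')
    obtain ⟨k, -, hk⟩ := exists_conj_mem (isSylowOf_top S) (h.Q_p (Submodule.span F {u})) le_top
    exact h.tv_ne h0 hl hg (by simpa [e] using hk g (h.E_mem1 hg hu (by simp)))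
  obtain ⟨u, h0, h1, hu⟩ := h.fix_iso S.isPGroup' hS
  replace hu := hu u h1
  have h2 : (S : Subgroup G) ≤ Fix ρ (Submodule.span F {u}) := fun g hg => mem_Fix_span.mpr (by simpa using h1 g hg)
  have h3 := (isSylowOf_top S).le_of_le_normalizer (h.Q_p _) le_top (h2.trans (h.Fix_le _))
  have h4 := h.cen (W := Submodule.span F {u}) (fun w hw => span_zero (h.zero (span_zero hu w hw)))
    (Submodule.mem_span_singleton_self _) h0
  refine ⟨hS, ?_, fun T t1 t2 t3 => ?_⟩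
  · obtain ⟨f, hf, huf⟩ := h.hyp1 h0 hu
    obtain ⟨v, v0, v1, v2, v3, v4⟩ : ∃ v, v ≠ 0 ∧ B v v = 0 ∧ B u v = 0 ∧ B f v = 0 ∧
        ∀ g ∈ (S : Subgroup G) ⊓ Fix ρ (Submodule.span F {u, f}), ρ g v = v := by
      by_cases e : (S : Subgroup G) ⊓ Fix ρ (Submodule.span F {u, f}) = ⊥
      · exact (h.iso u f hu hf huf).imp fun v H => ⟨H.1, H.2.1, H.2.2.1, H.2.2.2, by simp [e]⟩
      · obtain ⟨v, v0, v1, v2⟩ := h.fix_iso (S.isPGroup'.to_le inf_le_left) e
        exact ⟨v, v0, v2 v v1, v2 u fun g hg => h1 g hg.1, v2 f fun g hg => mem_Fix_span.mp hg.2 f (by simp), v1⟩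
    have m1 : u ∈ Submodule.span F {u, v} := Submodule.subset_span (by simp)
    have h5 : (S : Subgroup G) ≤ normalizer (h.Q (Submodule.span F {u, v}) : Set G) := fun g hg =>
      h.norm_Q (span_stab (by
        rintro _ (rfl | rfl)
        · exact (h1 g hg).symm ▸ m1
        obtain ⟨e, l, q, q1, -, q2, -, q3⟩ := h.mem_Q1 hu hf huf (h1 g hg)
        have := v4 _ ⟨S.1.mul_mem (S.1.inv_mem (h3 (h.E_mem1 q2 hu q1))) hg, q3⟩
        rw [← mul_inv_cancel_left q g, rho_mul, this, q2, v2, zero_smul, sub_zero]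
        exact add_mem (Submodule.subset_span (by simp)) (Submodule.smul_mem _ _ m1)))
    refine le_good S h3 h4 ((isSylowOf_top S).le_of_le_normalizer (h.Q_p _) le_top h5)
      (h.cen (h.plane hu v1 v2) m1 h0) h5 h2 (fun g hg => PE_mono (h.Fix_le _) ?_) fun g hg => ?_
    · obtain ⟨e, l, q, q1, -, q2, -, q3⟩ := h.mem_Q1 hu hf huf (hg u (Submodule.mem_span_singleton_self _))
      simpa using mul_mem (le_PE (h.Q_p _) (fun _ H => H.1) (h.E_mem1 q2 hu q1)) (h.gen u f hu hf huf q3)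
    obtain ⟨a, ha⟩ := Submodule.mem_span_singleton.mp (h.fix_line (x := ρ g u) h0 hu fun k hk => by
      have := congrArg (ρ g) (h1 _ (conj_mem' hg (h3 hk)))
      simpa [rho_mul] using this)
    obtain ⟨k, k1, k2⟩ := h.scale hu v1 v2 huf v3 v0 (a := a) fun e => h0 (by
      simpa [e] using congrArg (ρ g⁻¹) ha.symm)
    exact ⟨k, k1, norm_Fix (line_stab k2), mem_Fix_span.mpr (by simp [rho_mul, ← ha, ← k2])⟩
  obtain ⟨z, z1, z2, z3, z4⟩ := exists_central S.isPGroup' t1 t2 t3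
  obtain ⟨l, hl, hl'⟩ := h.has_tv h0 hu (fun x hx hx' g hg => t3 x hx g
    (h3 (conj_mem (h.Fix_le _ (mem_Fix_span.mpr (by simpa))) hx'))) z1
    (h4 z (fun y hy => z4 y (h3 hy)) ⟨1, (pow_one p).symm ▸ z3⟩) z2
  refine h.le_of_Q S fun x hx d d0 d1 hd => ?_
  obtain ⟨g, rfl⟩ := h.trans h0 hu d0 d1
  have h5 : g⁻¹ * x * g ∈ h.Q (Submodule.span F {u}) := by
    obtain ⟨e, m, e1, -, e3⟩ := h.eq_E d0 d1 hd
    simpa using h.E_mem1 (by simpa using h.E_conj e3 g⁻¹) hu (by rw [h.inv', e1])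
  simpa [mul_assoc] using t3 _ (h.Q_le S h0 hu h1 t3 hl hl' h3 h5) g (by simpa [mul_assoc] using hx)

end Frm

end Cfsg.Agent.FSim
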