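import Cfsg.Agent.FSim.Crit
import Cfsg.Agent.H23.MatB

/-!
# FSim/SL: the special linear groups in the defining characteristic
-/

set_option autoImplicit false

namespace Cfsg.Agent.FSim

open Subgroup Matrix Cfsg.Agent.H23

variable {p : ℕ} [hp : Fact p.Prime] {G : Type*} [Group G] [Fintype G]

theorem sb_good {W ι A : Type*} [Group W] [Fintype W] [Fintype ι] [Group A] (S : SB p G W ι) (Q : S.Par A) (hQ : Q.Gen)
    (hC : S.CO) (hι : ∀ i, ({i} : Set ι) ≠ Set.univ) (hn : ∀ i, Q.n i ∈ PE p (S.P {i})) :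
    normalizer (S.U : Set G) ≤ Good p S.U := fun g hg => by
  obtain ⟨u, hu, h, hh, rfl⟩ := SB.mem_B.mp (SB.mem_B_of_conj fun u hu => SB.U_le_P _ (conj_mem hg hu))
  refine mul_mem (self_le_good S.syl hu) ((hQ ((Good p S.U).comap S.H.subtype) fun i a => ?_).ge (mem_top ⟨h, hh⟩))
  refine mem_good (mem_normalizer_fintype fun _ => S.H_U (Q.α i a).2) (SB.O_le_U {i}) (fun y hy hy' g hg => ?_)
    (PE_mono (fun g hg => mem_normalizer_fintype fun _ => SB.conj_mem_O hg) ?_)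
  · obtain ⟨u, hu, z, hz, e⟩ := hC _ (hι i) (g * y * g⁻¹) fun o ho => by
      have := congrArg (fun t => g * t * g⁻¹) (hy _ (SB.conj_mem_O (inv_mem hg) ho))
      simpa [mul_assoc] using this
    obtain ⟨j, hj⟩ := pow_conj hy' g
    obtain ⟨k, hk⟩ := SB.pe_of_U hu
    have := Commute.mul_pow (mem_center_iff.mp hz u) (p ^ max j k)
    rw [← e, pow_max hj (le_max_left j k), pow_max hk (le_max_right j k), one_mul] at this
    rw [e, SB.PE.eq_one ⟨_, this.symm⟩ (S.not_dvd_of_center hz), mul_one]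
    exact hu
  obtain ⟨y, hy, y', hy', e⟩ := Q.rel i a
  have hX : ∀ x ∈ S.X i, x ∈ PE p (S.P {i}) := fun x hx => mem_PE (SB.U_le_P _ (S.X_le i hx)) (SB.pe_of_U (S.X_le i hx))
  have := mul_mem (inv_mem (hn i)) (mul_mem (mul_mem (inv_mem (hX y hy))
    (mul_mem (mul_mem (hn i) (hX _ (Q.e_mem i a))) (hn i))) (inv_mem (hX y' hy')))
  rwa [e, ← mul_assoc y⁻¹, inv_mul_cancel_left, mul_inv_cancel_right, inv_mul_cancel_left] at this

variable {m : ℕ} {F : Type*} [Field F] (Γ : MG G m F)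

theorem U_le {T : Subgroup G} (h : ∀ i j (e : i < j) c, Γ.t e.ne c ∈ T) : Γ.U ≤ T := fun u hu => by
  classical
  induction hn : (Finset.univ.filter fun x : Fin (m + 1) × Fin (m + 1) => x.1 < x.2 ∧ Γ.φ u x.1 x.2 ≠ 0).card
    using Nat.strong_induction_on generalizing u with
  | _ n ih =>
  by_cases h0 : ∃ i j, i < j ∧ Γ.φ u i j ≠ 0
  · obtain ⟨i, ⟨j, h1, h2⟩, h3⟩ := wellFounded_lt.has_min {i | ∃ j, i < j ∧ Γ.φ u i j ≠ 0} h0
    have h4 : ∀ k l, Γ.φ (u * Γ.t h1.ne (-Γ.φ u i j)) k l = if k = i ∧ l = j then 0 else Γ.φ u k l := fun k l => by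
      rw [map_mul, Γ.φ_t, mul_add, mul_one, Matrix.add_apply]
      by_cases h5 : l = j
      · subst h5
        rw [mul_single_apply_same]
        rcases lt_trichotomy k i with h6 | rfl | h6
        · simp [h6.ne, not_not.mp fun e => h3 k ⟨i, h6, e⟩ h6]
        · simp [hu.2]
        · simp [h6.ne', hu.1 h6]
      · simp [mul_single_apply_of_ne _ _ _ _ _ h5, h5]
    refine (mul_mem_cancel_right (h i j h1 (-Γ.φ u i j))).mp (ih _ ((Finset.card_lt_card
      ⟨fun x hx => ?_, fun e => ?_⟩).trans_eq hn) _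
      (mul_mem hu (Γ.t_mem_U h1 _)) rfl)
    · simp only [Finset.mem_filter, Finset.mem_univ, true_and, h4] at hx ⊢
      exact ⟨hx.1, fun e => hx.2 (by simp [e])⟩
    · simpa [h4] using e (x := (i, j)) (by simp [h1, h2])
  · rw [show u = 1 from Γ.inj ?_]
    · exact one_mem _
    ext k l
    rw [map_one]
    rcases lt_trichotomy k l with h2 | rfl | h2
    · rw [one_apply_ne h2.ne]; exact not_not.mp fun e => h0 ⟨k, l, h2, e⟩
    · rw [hu.2, one_apply_eq]
    · rw [hu.1 h2, one_apply_ne h2.ne']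

theorem t_pow [CharP F p] {i j : Fin (m + 1)} (h : i ≠ j) (c : F) : ∃ k, Γ.t h c ^ p ^ k = 1 := by
  have : ∀ n : ℕ, Γ.t h c ^ n = Γ.t h (n * c) := fun n => by
    induction n with
    | zero => simp [Γ.t_zero]
    | succ n ih => rw [pow_succ, ih, ← Γ.t_add, Nat.cast_succ, add_mul, one_mul]
  exact ⟨1, by simp [this, Γ.t_zero]⟩

theorem crit_sl [Finite F] [CharP F p] (hm : 2 ≤ m) (hdet : ∀ g, (Γ.φ g).det = 1) : Crit p Γ.U := by
  have h0 : (0 : Fin (m + 1)) < Fin.last m := Fin.lt_def.mpr (by simp; omega)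
  refine ⟨fun h => one_ne_zero (Γ.t_inj _ ((mem_bot.mp (h.le (Γ.t_mem_U h0 1))).trans (Γ.t_zero _).symm)),
    sb_good (Γ.sb p) (Γ.par p) (MG.par_gen p hdet) (Γ.sb_CO p) (fun i e => ?_) fun i => ?_, fun T h1 h2 h3 => ?_⟩
  · have : ∀ j : Fin m, j = i := fun j => e.ge trivial
    exact absurd ((this ⟨0, by omega⟩).trans (this ⟨1, by omega⟩).symm) (by simp)
  · have h1 := Γ.t_mem_U (Fin.castSucc_lt_succ (i := i)) 1
    have h2 := SB.U_le_P (S := Γ.sb p) {i} h1
    have h3 := (Γ.par p).M_n i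
    have h4 := SB.mem_P_of_M (J := {i}) h3 (subset_closure ⟨i, rfl, rfl⟩)
    exact mul_mem (mul_mem (mem_PE h2 (t_pow Γ _ _)) (mem_PE ((mul_mem_cancel_left h2).mp
      ((mul_mem_cancel_right h2).mp h4)) (t_pow Γ _ _))) (mem_PE h2 (t_pow Γ _ _))
  obtain ⟨z, h4, h5, -, h6⟩ := exists_central (Γ.isPGroup_U p) h1 h2 h3
  have h7 : ∀ a b, a < b → ∀ i j, (if a = i then Γ.φ z b j else 0) = if b = j then Γ.φ z i a else 0 := fun a b h i j => by
    have := congrArg Γ.φ (h6 _ (Γ.t_mem_U h 1))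
    simp only [map_mul, Γ.φ_t, add_mul, mul_add, one_mul, mul_one, add_right_inj] at this
    simpa [mul_apply, single_apply, ite_and] using congrFun (congrFun this i) j
  have h8 : z = Γ.t h0.ne (Γ.φ z 0 (Fin.last m)) := Γ.inj (by
    ext k l
    rw [Γ.φ_t, Matrix.add_apply]
    by_cases e : k = l
    · subst e; rw [(h1 h4).2, single_apply_of_ne _ _ _ _ _ fun e => h0.ne (e.1.trans e.2.symm)]; simp
    rw [one_apply_ne e, zero_add, single_apply]
    split_ifs with e'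
    · rw [e'.1, e'.2]
    by_cases e1 : 0 = k
    · simpa [e, Ne.symm e] using (h7 l _ (Fin.lt_last_iff_ne_last.mpr fun e2 => e' ⟨e1, e2.symm⟩) k (Fin.last m)).symm
    · simpa [e] using h7 0 k (Fin.pos_of_ne_zero (Ne.symm e1)) 0 l)
  refine U_le Γ fun i j e c => ?_
  obtain ⟨w, w0, w1⟩ := (MulAction.is_two_pretransitive_iff.mp (Equiv.Perm.isMultiplyPretransitive _ 2)) h0.ne e.ne
  obtain ⟨a, ha⟩ := MG.M_ex (Γ := Γ) w
  obtain ⟨k, k1, k2⟩ := Fin.exists_ne_and_ne_of_two_lt i j (by omega)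
  have h9 := ha.conj_t h0.ne (Γ.φ z 0 (Fin.last m))
  have h10 : Γ.φ a (w 0) 0 * Γ.φ z 0 (Fin.last m) * (Γ.φ a (w (Fin.last m)) (Fin.last m))⁻¹ ≠ 0 := by
    simp [ha.ne_zero, show Γ.φ z 0 (Fin.last m) ≠ 0 from fun e => h5 (by rw [h8, e, Γ.t_zero])]
  rw [← h8] at h9
  generalize _ * Γ.φ z 0 _ * _ = d at h9 h10
  obtain rfl : w 0 = i := w0
  obtain rfl : w (Fin.last m) = j := w1
  by_cases hc : c = 0
  · rw [hc, Γ.t_zero]; exact one_mem _
  have h11 := MG.M.conj_t (Γ.α k1.symm (Units.mk0 (c / d) (div_ne_zero hc h10))).2 e.ne d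
  simp only [Equiv.Perm.coe_one, id, MG.α_apply, if_true, e.ne', k2.symm, if_false, Units.val_mk0, inv_one, mul_one,
    div_mul_cancel₀ c h10] at h11
  have h12 := h3 _ (h3 z h4 a (h9 ▸ Γ.t_mem_U e d)) (Γ.α k1.symm (Units.mk0 (c / d) (div_ne_zero hc h10)))
  rw [h9, h11] at h12
  exact h12 (Γ.t_mem_U e c)

theorem simple_psl {K : Type*} [Field K] [Fintype K] [CharP K p] {n : ℕ} (hn : 3 ≤ n)
    (S : Sylow p (ProjectiveSpecialLinearGroup (Fin n) K)) : 
    (groupFusionSystem (S : Subgroup (ProjectiveSpecialLinearGroup (Fin n) K))).IsSimple p := by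
  classical
  obtain ⟨m, rfl⟩ : ∃ m, n = m + 1 := ⟨n - 1, by omega⟩
  refine simple_of_map (QuotientGroup.mk'_surjective _) (QuotientGroup.ker_mk' _).le (fun z hz e => ?_)
    ((slMG m K).sb p).syl (crit_sl (slMG m K) (by omega) fun g => g.2) S
  exact SB.PE.eq_one ⟨1, (pow_one p).symm ▸ e⟩ (((slMG m K).sb p).not_dvd_of_center ((QuotientGroup.ker_mk' _).le hz))

end Cfsg.Agent.FSim
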