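import Cfsg.Agent.FSim.Form
import Cfsg.Agent.Classical.AutSp
import Cfsg.Agent.Classical.SpMat
import Cfsg.Agent.Herm.SU
import Cfsg.Agent.Herm.Matrix

/-!
# FSim/SpU: the symplectic and the unitary groups
-/

set_option autoImplicit false

namespace Cfsg.Agent.FSim

open Subgroup Module Cfsg.Agent.Classical Cfsg.Agent.Herm

variable {F V : Type*} [Field F] [AddCommGroup V] [Module F V] [FiniteDimensional F V] {p : ℕ} [Fact p.Prime] [CharP F p]

/-- the natural module -/
def nat (K : Subgroup (V ≃ₗ[F] V)) : Representation F K V :=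
  LinearEquiv.automorphismGroup.toLinearMapMonoidHom.comp K.subtype

omit [FiniteDimensional F V] in
theorem nat_inj (K : Subgroup (V ≃ₗ[F] V)) : Function.Injective (nat K) := fun _ _ e =>
  Subtype.ext (LinearEquiv.toLinearMap_injective e)

theorem simple_quot {G H : Type*} [Group G] [Group H] [Finite G] [Finite F] {σ : F →+* F} {ε : F}
    {B : V →ₛₗ[σ] V →ₗ[F] F} {ρ : Representation F G V} (h : Frm p ε B ρ)
    (hZ : ∀ z ∈ center G, ∃ a : F, ∀ x, ρ z x = a • x) (e : H ≃* G) (S : Sylow p (H ⧸ center H)) :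
    (groupFusionSystem (S : Subgroup (H ⧸ center H))).IsSimple p := by
  have h1 : ((QuotientGroup.mk' (center H)).comp e.symm.toMonoidHom).ker ≤ center G := fun z hz =>
    (SpMat.mem_center_congr e.symm).mp ((QuotientGroup.eq_one_iff _).mp hz)
  refine simple_of_map (f := (QuotientGroup.mk' (center H)).comp e.symm.toMonoidHom)
    ((QuotientGroup.mk'_surjective _).comp e.symm.surjective) h1 (fun z hz e => ?_) default (h.crit _) S
  obtain ⟨a, ha⟩ := hZ z (h1 hz)
  obtain ⟨u, hu, -⟩ := h.iso0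
  obtain rfl := eq_one_of_smul ⟨1, (pow_one p).symm ▸ e⟩ hu (ha u)
  exact h.inj (LinearMap.ext fun x => by simp [ha])

theorem exists_perp {σ : F →+* F} (B : V →ₛₗ[σ] V →ₗ[F] F) {n : ℕ} (a : Fin n → V) (k : ℕ) (h : n + k < finrank F V)
    (W : Submodule F V) (hW : finrank F W ≤ k) : ∃ w, w ∉ W ∧ ∀ i, B (a i) w = 0 := by
  have h1 := (LinearMap.pi fun i => B (a i)).finrank_range_add_finrank_ker
  have h2 := (LinearMap.range (LinearMap.pi fun i => B (a i))).finrank_le
  rw [finrank_fin_fun] at h2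
  obtain ⟨w, h3, h4⟩ := SetLike.not_le_iff_exists.mp fun e : LinearMap.ker (LinearMap.pi fun i => B (a i)) ≤ W => by
    have := Submodule.finrank_mono e
    omega
  exact ⟨w, h4, congrFun h3⟩

section
open SpWitt
variable {B : LinearMap.BilinForm F V} (hB : B.Nondegenerate) (hA : B.IsAlt)
include hB hA

theorem sp_gen (H : Submodule F V) : Fix (nat (SG B)) H ≤ PE p (Fix (nat (SG B)) H) := by
  have h0 : ∀ v c, tv hA v c ^ p ^ 2 = 1 := fun v c => pow_of_cube (nat_inj _) fun x => by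
    simp [show ∀ y, nat (SG B) (tv hA v c) y = _ from tv_apply hA v c, hA.self_eq_zero]
  induction H using WellFoundedGT.induction with
  | ind H ih =>
  intro g hg
  by_cases hH : H = ⊤
  · rw [show g = 1 from SG.ext fun x => hg x (hH.ge trivial)]; exact one_mem _
  obtain ⟨u, -, hu⟩ := SetLike.exists_of_lt (lt_top_iff_ne_top.mpr hH)
  have h1 : ∀ u v : V, (∀ h ∈ H, B h u = B h v) → B u v ≠ 0 → ∃ k ∈ PE p (Fix (nat (SG B)) H), k.1 u = v :=
    fun u v h huv => ⟨tv hA (v - u) (B u v)⁻¹, mem_PE (fun x hx => (tv_apply hA _ _ x).trans (by simp [h x hx]))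
      ⟨2, h0 _ _⟩, by
      rw [tv_apply, map_sub, hA.self_eq_zero, sub_zero, inv_mul_cancel₀ huv]; simp⟩
  have h2 : ∀ h ∈ H, B h u = B h (g.1 u) := fun h hh => by rw [← SG.map g, show g.1 h = h from hg h hh]
  obtain ⟨k, hk, e⟩ : ∃ k ∈ PE p (Fix (nat (SG B)) H), k.1 u = g.1 u := by
    by_cases huv : B u (g.1 u) = 0
    · obtain ⟨y1, hy1, h3⟩ := exists_orth_one hB hA.isRefl H hu
      obtain ⟨y2, hy2, h4⟩ := exists_orth_one hB hA.isRefl H (u := g.1 u) fun e => hu (g.1.injective (hg _ e) ▸ e)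
      generalize g.1 u = v at *
      obtain ⟨y, hy, h5, h6⟩ : ∃ y, (∀ h ∈ H, B h y = 0) ∧ B u y ≠ 0 ∧ B v y ≠ 0 := by
        by_cases a : B v y1 = 0
        · by_cases b : B u y2 = 0
          · exact ⟨y1 + y2, fun h hh => by simp [hy1 h hh, hy2 h hh], by simp [h3, b], by simp [h4, a]⟩
          · exact ⟨y2, hy2, b, by simp [h4]⟩
        · exact ⟨y1, hy1, by simp [h3], a⟩
      obtain ⟨g1, hg1, b1⟩ := h1 u (u + y) (fun h hh => by simp [hy h hh]) (by simpa [hA.self_eq_zero] using h5)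
      obtain ⟨g2, hg2, b2⟩ := h1 (u + y) v (fun h hh => by simp [hy h hh, h2 h hh])
        (by rw [map_add, LinearMap.add_apply, huv, zero_add, ← hA.neg_eq]; simpa using h6)
      exact ⟨g2 * g1, mul_mem hg2 hg1, by rw [SG.mul_apply, b1, b2]⟩
    · exact h1 u _ h2 huv
  refine (mul_mem_cancel_left (inv_mem hk)).mp (PE_mono (K := Fix (nat (SG B)) (H ⊔ Submodule.span F {u})) (L := Fix (nat (SG B)) H) (fun _ h x hx => h x (Submodule.mem_sup_left hx))
    (ih (H ⊔ Submodule.span F {u}) (left_lt_sup.mpr (by simpa)) fun x hx => ?_))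
  obtain ⟨y, hy, z, hz, rfl⟩ := Submodule.mem_sup.mp hx
  rw [map_add, mul_mem (inv_mem (PE_le _ hk)) hg y hy,
    mem_Fix_span.mpr (by rintro _ rfl; exact (congrArg _ e.symm).trans (SG.inv_apply k _)) z hz]

theorem frm_sp (hn : 4 ≤ finrank F V) (h : (∃ c : F, c ≠ 0 ∧ c ≠ 1) ∨ 5 ≤ finrank F V) : Frm p (-1) B (nat (SG B)) where
  invol _ := rfl
  ee := by simp
  σe := rfl
  sym x y := by simp [hA.neg_eq]
  esym x y := by simp [← hA.neg_eq x y]
  orth H u hu := (exists_orth_one hB hA.isRefl H hu).elim fun y hy =>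
    ⟨-y, fun h hh => by simp [hA.neg_eq, hy.1 h hh], by simp [hA.neg_eq, hy.2]⟩
  inj := nat_inj _
  inv := SG.map
  E d e l _ h _ := ⟨AutSp.eich hA d e l, fun x => (AutSp.eich_apply hA h l x).trans (by
    rw [← hA.neg_eq d, ← hA.neg_eq e]; module)⟩
  tr e := ⟨0, by simp [hA.self_eq_zero]⟩
  skew := ⟨1, one_ne_zero, by simp⟩
  iso0 := (exists_perp B ![] 0 (by omega) ⊥ (by simp)).imp fun u hu => ⟨by simpa using hu.1, hA u⟩
  iso u f _ _ _ := (exists_perp B ![u, f] 0 (by omega) ⊥ (by simp)).imp fun v hv =>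
    ⟨by simpa using hv.1, hA v, hv.2 0, hv.2 1⟩
  gen u f _ _ _ g hg := sp_gen hB hA _ fun x hx => hg x (Submodule.span_mono (by simp) hx)
  exc ha := ⟨hA, by have := ha 1; rw [map_one] at this; linear_combination this, h.imp_right fun h u e e' =>
    (exists_perp B ![u, e, e'] 1 (by omega) _ ((finrank_span_le_card _).trans (by simp))).imp fun w hw =>
      ⟨hw.1, hw.2 0, hw.2 1, hw.2 2⟩⟩

end

theorem simple_psp [Fintype F] {m : ℕ} (hm : 2 ≤ m) (hex : m = 2 → 3 ≤ Fintype.card F) (S : Sylow p (PSp m F)) :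
    (groupFusionSystem (S : Subgroup (PSp m F))).IsSimple p := by
  classical
  haveI := Finite.of_equiv _ (SpMat.spEquiv (Fin m) F).toEquiv
  have := SpMat.finrank_eq (ι := Fin m) (F := F)
  rw [Fintype.card_fin] at this
  refine simple_quot (frm_sp SpMat.sB_nondeg SpMat.sB_alt (by omega) ?_) (fun z hz => ?_) (SpMat.spEquiv (Fin m) F) S
  · by_cases e : m = 2
    · obtain ⟨c, -, hc⟩ := Finset.exists_mem_notMem_of_card_lt_card (s := ({0, 1} : Finset F)) (t := Finset.univ)
        (Finset.card_le_two.trans_lt (hex e))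
      exact Or.inl ⟨c, by simpa using hc⟩
    · exact Or.inr (by omega)
  · rcases (SpSimple.mem_center_iff SpMat.sB_nondeg SpMat.sB_alt).mp hz with rfl | rfl
    exacts [⟨1, fun x => by simp⟩, ⟨-1, fun x => (neg_one_smul F x).symm⟩]

section
variable {σ : F →+* F} {B : V →ₛₗ[σ] V →ₗ[F] F} (hB : HF B)
include hB

theorem eich_pow (u v : V) (l : F) : ∃ k, hB.eich u v l ^ p ^ k = 1 := by
  by_cases h : B u u = 0 ∧ B u v = 0 ∧ l + σ l = B v v
  · exact ⟨2, pow_of_cube (nat_inj _) fun x => by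
      simp [show ∀ y, nat (UG B) _ y = _ from hB.eich_apply h.1 h.2.1 h.2.2, h.1, h.2.1, hB.zero_symm h.2.1,
        add_sub_assoc]⟩
  · exact ⟨0, by simp [hB.eich_of_not h]⟩

theorem frm_su [Finite F] (hn : 4 ≤ finrank F V) : Frm p 1 B ((nat (UG B)).comp (SUG B).subtype) where
  invol := hB.invol
  ee := one_mul _
  σe := map_one _
  sym x y := by rw [hB.symm, one_mul]
  esym _ _ := one_mul _
  orth _ _ := hB.exists_orth_one _
  inj := (nat_inj _).comp Subtype.val_injective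
  inv g := g.1.2
  E d e l h1 h2 h3 := ⟨⟨hB.eich d e l, hB.eich_mem_SUG ..⟩, fun x =>
    (hB.eich_apply h1 h2 (by simpa using h3) x).trans (by rw [one_mul])⟩
  tr e := by simpa using hB.toInv.exists_trace (hB.fix e)
  skew := by simpa using hB.toInv.exists_skew
  iso0 := hB.exists_isotropic (by omega)
  iso u f h1 h2 h3 := by
    have := hB.finrank_perp_hyp h1 h2 h3
    obtain ⟨⟨v, hv⟩, h4, h5⟩ := (hB.res_perp_hyp h1 h2 h3).exists_isotropic (by omega)
    exact ⟨v, fun e => h4 (Subtype.ext e), h5, mem_perp_pair.mp hv⟩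
  gen u f h1 h2 h3 g hg := by
    have := hB.finrank_perp_hyp h1 h2 h3
    obtain ⟨φ, -, h4, -, h5⟩ := hB.exists_fix_hom (hB.hyp_inf_perp h1 h2 h3)
    obtain ⟨k, hk⟩ := (h4 g).mpr hg
    have h6 : k ∈ (hB.res_perp_hyp h1 h2 h3).eichGroup := by
      rw [HF.eichGroup_eq _ (by omega), mem_SUG, ← h5, hk]; exact mem_SUG.mp g.2
    obtain ⟨j, hj, e⟩ := (closure_le (((PE p (Fix ((nat (UG B)).comp (SUG B).subtype)
      (Submodule.span F {u}))).map (SUG B).subtype).comap φ)).mpr (by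
      rintro _ ⟨a, b, l, rfl⟩
      refine ⟨⟨_, mem_SUG.mpr (h5 _ ▸ mem_SUG.mp (HF.eich_mem_SUG ..))⟩, mem_PE (fun x hx => (h4 _).mp ⟨_, rfl⟩ x
        (Submodule.span_mono (by simp) hx)) ((eich_pow (hB.res_perp_hyp h1 h2 h3) a b l).imp fun k e => Subtype.ext ?_), rfl⟩
      exact (map_pow φ _ _).symm.trans (e ▸ map_one φ)) h6
    exact Subtype.ext (e.trans hk) ▸ hj
  exc ha := hB.ne.elim fun a h => absurd (by simpa using (ha a).symm) h

end

theorem simple_psu [Fintype F] {q n : ℕ} (hF : Fintype.card F = q ^ 2) (hn : 4 ≤ n) (S : Sylow p (PSU n F q)) :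
    (groupFusionSystem (S : Subgroup (PSU n F q))).IsSimple p := by
  have h := hf_sB (natCard_of_card hF) n
  refine simple_quot (frm_su h (by simpa)) (fun z hz => ?_) (toSUG (natCard_of_card hF) n) S
  obtain ⟨a, e⟩ := (h.mem_center_SUG (by simp; omega) z).mp hz
  exact ⟨a.1, fun x => congrArg (fun g : UG _ => g.1 x) e⟩

end Cfsg.Agent.FSim
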